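import Cfsg.Agent.H35.SFourControl.Main
import Cfsg.Agent.H83.Involves

set_option autoImplicit false

/-!
The two factorisations in all constrained sections from the factorisation theorem for constrained
groups with known composition factors.
-/

namespace Cfsg.Agent.H35.SFourControl

open Cfsg Subgroup

universe u

/-- The factorisation theorem (its second and third parts), as a hypothesis. -/
def FactorTheorem : Prop :=
  ∀ (G : Type u) [Group G] [Finite G],
    centralizer (pCore 2 G : Set G) ≤ pCore 2 G → ¬ Involves (Equiv.Perm (Fin 4)) G →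
      IsCompositionKGroupWith IsSuzukiOrPSL2OddPowerThree G → FactorsIn G

theorem factors_of_theorem (hthm : FactorTheorem.{u}) {G : Type u} [Group G] [Finite G]
    (hfree : ¬ Involves (Equiv.Perm (Fin 4)) G)
    (hsec : ∀ (K R : Subgroup G) [hR : (R.subgroupOf K).Normal],
      centralizer (pCore 2 (K ⧸ R.subgroupOf K) : Set (K ⧸ R.subgroupOf K)) ≤ pCore 2 (K ⧸ R.subgroupOf K) →
      IsCompositionKGroupWith IsSuzukiOrPSL2OddPowerThree (K ⧸ R.subgroupOf K)) :
    Factors G := fun K R _ hc => hthm _ hc
  (fun hinv => hfree (H83.involves_of_subgroup (H83.involves_of_quotient hinv))) (hsec K R hc)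

end Cfsg.Agent.H35.SFourControl
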